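import Mathlib
import Cfsg.Agent.Lib.Helper68.Half.Defs

/-!
# Project HALF (S3371): package [IMPODD]
-/

set_option autoImplicit false

namespace Cfsg.Agent.Lib.Helper45.Half

open Cfsg.Agent.Lib.Helper68.Half

universe u v

theorem half_fpf_of_order {p : ℕ} (hp : p.Prime) (τ : Equiv.Perm (Fin p)) (hτ : orderOf τ = p) :
    ∀ i, τ i ≠ i := by
  have hp' : (orderOf τ).Prime := by rw [hτ]; exact hp
  obtain ⟨n, hn⟩ := Equiv.Perm.cycleType_prime_order hp'
  rw [hτ] at hn
  have hsum := τ.sum_cycleType
  rw [hn, Multiset.sum_replicate, smul_eq_mul] at hsum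
  have hle : τ.support.card ≤ p := by
    have h1 := Finset.card_le_univ τ.support
    rwa [Fintype.card_fin] at h1
  have hppos := hp.pos
  have hn0 : n = 0 := by
    by_contra h
    have h2 : 2 * p ≤ (n + 1) * p := Nat.mul_le_mul_right p (by omega)
    omega
  rw [hn0] at hsum
  have hsupp : τ.support = Finset.univ := by
    apply Finset.eq_univ_of_card
    rw [Fintype.card_fin]
    omega
  intro i
  exact Equiv.Perm.mem_support.1 (by rw [hsupp]; exact Finset.mem_univ i)

theorem half_indep3 {R : Type*} {V : Type*} [Ring R] [AddCommGroup V] [Module R V] {ι : Type*}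
    (W : ι → Submodule R V) (hind : iSupIndep W) (k i j l : ι) (hki : k ≠ i) (hkj : k ≠ j)
    (hkl : k ≠ l) (a x y z : V) (ha : a ∈ W k) (hx : x ∈ W i) (hy : y ∈ W j) (hz : z ∈ W l)
    (h : a = x + y + z) : a = 0 := by
  have hd := hind k
  have hmem : a ∈ ⨆ (m : ι) (_ : m ≠ k), W m := by
    rw [h]
    apply Submodule.add_mem
    · apply Submodule.add_mem
      · exact Submodule.mem_iSup_of_mem i (Submodule.mem_iSup_of_mem (Ne.symm hki) hx)
      · exact Submodule.mem_iSup_of_mem j (Submodule.mem_iSup_of_mem (Ne.symm hkj) hy)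
    · exact Submodule.mem_iSup_of_mem l (Submodule.mem_iSup_of_mem (Ne.symm hkl) hz)
  exact (Submodule.disjoint_def.1 hd) a ha hmem

theorem pkgImpOdd : PkgImpOdd.{u, v} := by
  intro q _ V _ _ _ _ G _ _ p _ ρ hinj hEq H W himp
  obtain ⟨hidx, hsup, hind, hH, hfix, hperm⟩ := himp
  have hpP : p.Prime := Fact.out
  by_contra hp2
  have hp3 : 3 ≤ p := by
    have := hpP.two_le
    omega
  obtain ⟨i, hi⟩ : ∃ i, W i ≠ ⊥ := by
    by_contra hall
    push Not at hall
    have hbot : iSup W = ⊥ := by
      rw [iSup_eq_bot]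
      exact hall
    rw [hsup] at hbot
    obtain ⟨x, hx⟩ := exists_ne (0 : V)
    have hxt : x ∈ (⊤ : Submodule (ZMod q) V) := Submodule.mem_top
    rw [hbot, Submodule.mem_bot] at hxt
    exact hx hxt
  obtain ⟨wi, hwi, hwi0⟩ := (Submodule.ne_bot_iff _).1 hi
  obtain ⟨hi0, hhiH, hhi1, hhifix⟩ := hfix i
  have hclaim : ∀ j, j ≠ i → ∀ wj ∈ W j, wj ≠ 0 → St ρ wi = St ρ wj := by
    intro j hji wj hwj hwj0
    have hdisj : Disjoint (W i) (W j) := hind.pairwiseDisjoint (Ne.symm hji)
    have hv0 : wi + wj ≠ 0 := by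
      intro h0
      have h1 : wi = -wj := eq_neg_of_add_eq_zero_left h0
      have h2 : wi ∈ W j := by
        rw [h1]
        exact (W j).neg_mem hwj
      exact hwi0 ((Submodule.disjoint_def.1 hdisj) wi hwi h2)
    have hle : St ρ (wi + wj) ≤ St ρ wi ⊓ St ρ wj := by
      intro g hg
      rw [mem_St, map_add] at hg
      by_cases hgH : g ∈ H
      · have h1 : ρ g wi - wi = wj - ρ g wj := by
          rw [sub_eq_sub_iff_add_eq_add, hg, add_comm]
        have h2 : ρ g wi - wi ∈ W i := (W i).sub_mem (hH g hgH i wi hwi) hwi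
        have h3 : ρ g wi - wi ∈ W j := by
          rw [h1]
          exact (W j).sub_mem hwj (hH g hgH j wj hwj)
        have h4 := (Submodule.disjoint_def.1 hdisj) _ h2 h3
        have h5 : ρ g wi = wi := sub_eq_zero.1 h4
        have h6 : ρ g wj = wj := by
          rw [h5] at hg
          exact add_left_cancel hg
        exact ⟨h5, h6⟩
      · exfalso
        obtain ⟨σ, hσ, hW⟩ := hperm g hgH
        have hfpf := half_fpf_of_order hpP σ hσ
        have ha : ρ g wi ∈ W (σ i) := by
          rw [← hW i]
          exact Submodule.mem_map_of_mem hwi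
        have hb : ρ g wj ∈ W (σ j) := by
          rw [← hW j]
          exact Submodule.mem_map_of_mem hwj
        have ha0 : ρ g wi ≠ 0 := fun h => hwi0 ((ρ g).map_eq_zero_iff.1 h)
        have hb0 : ρ g wj ≠ 0 := fun h => hwj0 ((ρ g).map_eq_zero_iff.1 h)
        have hσij : σ i ≠ σ j := fun h => hji (σ.injective h).symm
        have h1 : σ i = j := by
          by_contra hne
          apply ha0
          exact half_indep3 W hind (σ i) i j (σ j) (hfpf i) hne hσij (ρ g wi) wi wj (-(ρ g wj))
            ha hwi hwj ((W (σ j)).neg_mem hb) (by rw [← hg]; abel)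
        have h2 : σ j = i := by
          by_contra hne
          apply hb0
          exact half_indep3 W hind (σ j) i j (σ i) hne (hfpf j) (Ne.symm hσij) (ρ g wj) wi wj
            (-(ρ g wi)) hb hwi hwj ((W (σ i)).neg_mem ha) (by rw [← hg]; abel)
        have hσ2 : orderOf (σ ^ 2) = p := by
          rw [orderOf_pow' _ (by norm_num), hσ]
          have hg1 : Nat.gcd p 2 = 1 := by
            rw [Nat.gcd_comm]
            exact (Nat.coprime_primes Nat.prime_two hpP).2 (Ne.symm hp2)
          rw [hg1, Nat.div_one]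
        apply half_fpf_of_order hpP (σ ^ 2) hσ2 i
        rw [sq, Equiv.Perm.mul_apply, h1, h2]
    have h1 : St ρ (wi + wj) = St ρ wi :=
      Subgroup.eq_of_le_of_card_ge (hle.trans inf_le_left) (hEq wi (wi + wj) hwi0 hv0).le
    have h2 : St ρ (wi + wj) = St ρ wj :=
      Subgroup.eq_of_le_of_card_ge (hle.trans inf_le_right) (hEq wj (wi + wj) hwj0 hv0).le
    rw [← h1, h2]
  have hall : ∀ v : V, ρ hi0 v = v := by
    intro v
    have hv : v ∈ iSup W := by
      rw [hsup]
      exact Submodule.mem_top
    refine Submodule.iSup_induction W (motive := fun v => ρ hi0 v = v) hv ?_ ?_ ?_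
    · intro j x hx
      by_cases hji : j = i
      · rw [hji] at hx
        exact hhifix x hx
      · by_cases hx0 : x = 0
        · rw [hx0, map_zero]
        · have h3 := hclaim j hji x hx hx0
          have hmem : hi0 ∈ St ρ wi := hhifix wi hwi
          rw [h3] at hmem
          exact hmem
    · exact map_zero _
    · intro x y hx hy
      rw [map_add, hx, hy]
  apply hhi1
  apply hinj
  rw [map_one]
  ext v
  exact hall v

end Cfsg.Agent.Lib.Helper45.Half
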