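import Mathlib
import Cfsg.Agent.Lib.Helper68.Half.Defs

/-!
# Project HALF (S3371): packages [QUAT], [IMPCARD]
-/

set_option autoImplicit false

namespace Cfsg.Agent.Lib.Helper45.Half

open Cfsg.Agent.Lib.Helper68.Half

universe u v

theorem half_quat_central {n : ℕ} (i : ZMod (2 * n)) (hi : i + i = 0) (s : QuaternionGroup n) :
    s * QuaternionGroup.a i = QuaternionGroup.a i * s := by
  rcases s with j | j
  · rw [QuaternionGroup.a_mul_a, QuaternionGroup.a_mul_a, add_comm]
  · rw [QuaternionGroup.xa_mul_a, QuaternionGroup.a_mul_xa]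
    congr 1
    linear_combination hi

theorem pkgQuat : PkgQuat.{u, v} := by
  intro q _ V _ _ _ G _ _ p _ ρ hpG hcent hquat
  obtain ⟨n, ⟨e⟩⟩ := hquat
  have hpP : p.Prime := Fact.out
  have hn : n ≠ 0 := by
    intro hn0
    have h1 : orderOf (e.symm (QuaternionGroup.a 1)) = 2 * n := by
      rw [MulEquiv.orderOf_eq, QuaternionGroup.orderOf_a_one]
    have h2 := orderOf_pos (e.symm (QuaternionGroup.a 1))
    omega
  have hnz : NeZero n := ⟨hn⟩
  have hp2 : p = 2 := by
    obtain ⟨k, hk⟩ := (IsPGroup.iff_orderOf.1 hpG) (e.symm (QuaternionGroup.xa 0))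
    rw [MulEquiv.orderOf_eq, QuaternionGroup.orderOf_xa] at hk
    have hk0 : k ≠ 0 := by
      rintro rfl
      simp at hk
    have hdvd : p ∣ 2 ^ 2 := by
      have h3 : p ∣ p ^ k := dvd_pow_self p hk0
      rw [← hk] at h3
      exact h3
    exact (Nat.prime_dvd_prime_iff_eq hpP Nat.prime_two).1 (hpP.dvd_of_dvd_pow hdvd)
  intro v hv g hg
  by_contra hg1
  obtain ⟨j, hj⟩ := (IsPGroup.iff_orderOf.1 hpG) g
  have hj0 : j ≠ 0 := by
    rintro rfl
    rw [pow_zero, orderOf_eq_one_iff] at hj
    exact hg1 hj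
  obtain ⟨g', hg'⟩ : ∃ g', g' = g ^ (p ^ (j - 1)) := ⟨_, rfl⟩
  have hg'1 : g' ≠ 1 := by
    rw [hg']
    apply pow_ne_one_of_lt_orderOf (by positivity)
    rw [hj]
    exact Nat.pow_lt_pow_right hpP.one_lt (by omega)
  have hg'2 : g' * g' = 1 := by
    rw [hg', ← pow_add, ← two_mul]
    have h5 : 2 * p ^ (j - 1) = p ^ j := by
      rw [hp2]
      conv_rhs => rw [show j = (j - 1) + 1 by omega, pow_succ]
      ring
    rw [h5, ← hj, pow_orderOf_eq_one]
  have hg'v : ρ g' v = v := by
    rw [hg', map_pow]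
    have h6 : ∀ k : ℕ, ((ρ g) ^ k) v = v := by
      intro k
      induction k with
      | zero => simp
      | succ k ih => rw [pow_succ, LinearEquiv.mul_apply, hg, ih]
    exact h6 _
  have hcen : g' ∈ Subgroup.center G := by
    rw [Subgroup.mem_center_iff]
    intro h
    apply e.injective
    rw [map_mul, map_mul]
    have ht2 : e g' * e g' = 1 := by rw [← map_mul, hg'2, map_one]
    rcases hc : e g' with i | i
    · rw [hc] at ht2
      rw [QuaternionGroup.a_mul_a, QuaternionGroup.one_def] at ht2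
      have hi : i + i = 0 := QuaternionGroup.a.inj ht2
      exact half_quat_central i hi (e h)
    · exfalso
      rw [hc] at ht2
      have h4 := QuaternionGroup.orderOf_xa (n := n) i
      have h7 : orderOf (QuaternionGroup.xa i : QuaternionGroup n) ∣ 2 :=
        orderOf_dvd_of_pow_eq_one (by rw [sq]; exact ht2)
      rw [h4] at h7
      omega
  exact hv (hcent g' hcen hg'1 v hg'v)

theorem pkgImpCard : PkgImpCard.{u, v} := by
  intro q _ V _ _ _ G _ _ ρ H W himp
  obtain ⟨hidx, hsup, hind, _, _, hperm⟩ := himp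
  have hdisj : Disjoint (W 0) (W 1) := hind.pairwiseDisjoint (by decide : (0 : Fin 2) ≠ 1)
  have hcod : W 0 ⊔ W 1 = ⊤ := by
    apply le_antisymm le_top
    rw [← hsup]
    apply iSup_le
    intro i
    fin_cases i
    · exact le_sup_left
    · exact le_sup_right
  have hcompl : IsCompl (W 0) (W 1) := ⟨hdisj, codisjoint_iff.2 hcod⟩
  have hc1 : Nat.card V = Nat.card (W 0) * Nat.card (W 1) := by
    rw [← Nat.card_prod]
    exact (Nat.card_congr (Submodule.prodEquivOfIsCompl (W 0) (W 1) hcompl).toEquiv).symm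
  obtain ⟨g₀, hg₀⟩ : ∃ g₀ : G, g₀ ∉ H := by
    by_contra hall
    push Not at hall
    have htop : H = ⊤ := by
      rw [eq_top_iff]
      intro g _
      exact hall g
    rw [htop, Subgroup.index_top] at hidx
    omega
  obtain ⟨σ, hσ, hW⟩ := hperm g₀ hg₀
  have hσ0 : σ 0 = 1 := by
    by_contra hne
    have h0 : σ 0 = 0 := by
      have := Fin.exists_fin_two.1 ⟨σ 0, rfl⟩
      rcases this with h | h
      · exact h
      · exact absurd h hne
    have h1 : σ 1 = 1 := by
      by_contra hne1
      have h10 : σ 1 = 0 := by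
        have := Fin.exists_fin_two.1 ⟨σ 1, rfl⟩
        rcases this with h | h
        · exact h
        · exact absurd h hne1
      have := σ.injective (h10.trans h0.symm)
      exact absurd this (by decide)
    have hσ1 : σ = 1 := by
      ext i
      fin_cases i
      · simp [h0]
      · simp [h1]
    rw [hσ1, orderOf_one] at hσ
    omega
  have hc2 : Nat.card (W 1) = Nat.card (W 0) := by
    rw [← hσ0, ← hW 0]
    exact (Nat.card_congr (Submodule.equivMapOfInjective (ρ g₀ : V →ₗ[ZMod q] V)
      (ρ g₀).injective (W 0)).toEquiv).symm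
  rw [hc1, hc2]

end Cfsg.Agent.Lib.Helper45.Half
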